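import Mathlib
import Cfsg.Prelude.Def_Sporadic_a

/-!
# The projective plane of order four, as a Steiner system `S(2,5,21)`

Arcs ("independent sets"), the extension numbers `16, 9, 2`, and hyperovals.
-/

set_option autoImplicit false

open Cfsg Finset

namespace Cfsg.Agent.Lib.BasicSteiner.Plane4

variable {α : Type*} [Fintype α] [DecidableEq α]

/-- The hypotheses on the plane. -/
structure Plane (L : Set (Finset α)) : Prop where
  card : Fintype.card α = 21
  st : IsSteinerSystem 2 5 L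

variable {L : Set (Finset α)}

theorem Plane.card_line (hP : Plane L) {l : Finset α} (hl : l ∈ L) : l.card = 5 := hP.st.1 l hl

theorem Plane.existsUnique (hP : Plane L) {x y : α} (h : x ≠ y) :
    ∃ l, (l ∈ L ∧ x ∈ l ∧ y ∈ l) ∧ ∀ l', (l' ∈ L ∧ x ∈ l' ∧ y ∈ l') → l' = l := by
  obtain ⟨l, ⟨hl, hs⟩, hu⟩ := hP.st.2 {x, y} (Finset.card_pair h)
  refine ⟨l, ⟨hl, hs (by simp), hs (by simp)⟩, fun l' hl' => hu l' ⟨hl'.1, ?_⟩⟩
  intro z hz
  simp only [mem_insert, mem_singleton] at hz
  rcases hz with rfl | rfl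
  · exact hl'.2.1
  · exact hl'.2.2

open Classical in
/-- The line through two points (junk if they coincide). -/
noncomputable def ln (L : Set (Finset α)) (x y : α) : Finset α :=
  if h : ∃ l, l ∈ L ∧ x ∈ l ∧ y ∈ l then h.choose else ∅

theorem Plane.ln_spec (hP : Plane L) {x y : α} (h : x ≠ y) :
    ln L x y ∈ L ∧ x ∈ ln L x y ∧ y ∈ ln L x y := by
  obtain ⟨l, hl, _⟩ := hP.existsUnique h
  have hex : ∃ l, l ∈ L ∧ x ∈ l ∧ y ∈ l := ⟨l, hl⟩
  rw [ln, dif_pos hex]
  exact hex.choose_spec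

theorem Plane.ln_mem (hP : Plane L) {x y : α} (h : x ≠ y) : ln L x y ∈ L := (hP.ln_spec h).1
theorem Plane.left_mem (hP : Plane L) {x y : α} (h : x ≠ y) : x ∈ ln L x y := (hP.ln_spec h).2.1
theorem Plane.right_mem (hP : Plane L) {x y : α} (h : x ≠ y) : y ∈ ln L x y := (hP.ln_spec h).2.2

theorem Plane.ln_eq (hP : Plane L) {x y : α} {l : Finset α} (h : x ≠ y) (hl : l ∈ L)
    (hx : x ∈ l) (hy : y ∈ l) : ln L x y = l := by
  obtain ⟨l₀, _, hu⟩ := hP.existsUnique h
  rw [hu _ (hP.ln_spec h), hu _ ⟨hl, hx, hy⟩]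

theorem Plane.ln_comm (hP : Plane L) {x y : α} (h : x ≠ y) : ln L x y = ln L y x :=
  hP.ln_eq h (hP.ln_mem h.symm) (hP.right_mem h.symm) (hP.left_mem h.symm)

/-- Two lines sharing two points coincide. -/
theorem Plane.line_eq_of_two (hP : Plane L) {l l' : Finset α} (hl : l ∈ L) (hl' : l' ∈ L)
    {x y : α} (h : x ≠ y) (hx : x ∈ l) (hy : y ∈ l) (hx' : x ∈ l') (hy' : y ∈ l') : l = l' := by
  rw [← hP.ln_eq h hl hx hy, hP.ln_eq h hl' hx' hy']

open Classical in
/-- The lines through a point. -/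
noncomputable def pencil (L : Set (Finset α)) (x : α) : Finset (Finset α) :=
  univ.filter (fun l => l ∈ L ∧ x ∈ l)

theorem mem_pencil {x : α} {l : Finset α} : l ∈ pencil L x ↔ l ∈ L ∧ x ∈ l := by
  simp [pencil]

theorem Plane.card_pencil (hP : Plane L) (x : α) : (pencil L x).card = 5 := by
  classical
  have h1 : ((univ : Finset α).erase x).card = 20 := by
    rw [card_erase_of_mem (mem_univ x), card_univ, hP.card]
  have hmap : ∀ y ∈ (univ : Finset α).erase x, ln L x y ∈ pencil L x := by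
    intro y hy
    have hne : x ≠ y := (ne_of_mem_erase hy).symm
    exact mem_pencil.2 ⟨hP.ln_mem hne, hP.left_mem hne⟩
  have h2 := card_eq_sum_card_fiberwise hmap
  have h3 : ∀ l ∈ pencil L x,
      (((univ : Finset α).erase x).filter (fun y => ln L x y = l)).card = 4 := by
    intro l hl
    obtain ⟨hlL, hxl⟩ := mem_pencil.1 hl
    have : ((univ : Finset α).erase x).filter (fun y => ln L x y = l) = l.erase x := by
      ext y
      simp only [mem_filter, mem_erase, mem_univ, and_true]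
      constructor
      · rintro ⟨hne, rfl⟩
        exact ⟨hne, hP.right_mem hne.symm⟩
      · rintro ⟨hne, hy⟩
        exact ⟨hne, hP.ln_eq hne.symm hlL hxl hy⟩
    rw [this, card_erase_of_mem hxl, hP.card_line hlL]
  rw [h1, sum_congr rfl h3, sum_const, smul_eq_mul] at h2
  omega

/-- Two distinct lines meet. -/
theorem Plane.exists_meet (hP : Plane L) {l l' : Finset α} (hl : l ∈ L) (hl' : l' ∈ L)
    (hne : l ≠ l') : ∃ z, z ∈ l ∧ z ∈ l' := by
  classical
  obtain ⟨x, hx, hx'⟩ : ∃ x ∈ l, x ∉ l' := by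
    by_contra hcon
    push Not at hcon
    exact hne (eq_of_subset_of_card_le hcon (by rw [hP.card_line hl, hP.card_line hl']))
  have hneq : ∀ y ∈ l', x ≠ y := fun y hy h => hx' (h ▸ hy)
  have himg : l'.image (ln L x) = pencil L x := by
    apply eq_of_subset_of_card_le
    · intro m hm
      obtain ⟨y, hy, rfl⟩ := mem_image.1 hm
      exact mem_pencil.2 ⟨hP.ln_mem (hneq y hy), hP.left_mem (hneq y hy)⟩
    · rw [hP.card_pencil, card_image_of_injOn, hP.card_line hl']
      intro y hy y' hy' heq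
      by_contra hyy
      have hyl : y' ∈ ln L x y := by
        have : ln L x y = ln L x y' := heq
        rw [this]; exact hP.right_mem (hneq y' hy')
      have := hP.line_eq_of_two (hP.ln_mem (hneq y hy)) hl' hyy (hP.right_mem (hneq y hy)) hyl hy hy'
      exact hx' (this ▸ hP.left_mem (hneq y hy))
  have hm : l ∈ l'.image (ln L x) := by rw [himg]; exact mem_pencil.2 ⟨hl, hx⟩
  obtain ⟨y, hy, hyl⟩ := mem_image.1 hm
  refine ⟨y, ?_, hy⟩
  rw [← hyl]; exact hP.right_mem (hneq y hy)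

/-- Independent sets (arcs): no line meets them in more than two points. -/
def Indep (L : Set (Finset α)) (S : Finset α) : Prop := ∀ l ∈ L, (l ∩ S).card ≤ 2

theorem Indep.mono {S T : Finset α} (hS : Indep L S) (h : T ⊆ S) : Indep L T :=
  fun l hl => (card_le_card (inter_subset_inter_left h)).trans (hS l hl)

theorem Plane.indep_iff (hP : Plane L) {S : Finset α} :
    Indep L S ↔ ∀ p ∈ S, ∀ q ∈ S, ∀ r ∈ S, p ≠ q → p ≠ r → q ≠ r → r ∉ ln L p q := by
  constructor
  · intro h p hp q hq r hr hpq hpr hqr hrl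
    have h3 : ({p, q, r} : Finset α) ⊆ ln L p q ∩ S := by
      intro z hz
      simp only [mem_insert, mem_singleton] at hz
      rcases hz with rfl | rfl | rfl
      · exact mem_inter.2 ⟨hP.left_mem hpq, hp⟩
      · exact mem_inter.2 ⟨hP.right_mem hpq, hq⟩
      · exact mem_inter.2 ⟨hrl, hr⟩
    have := card_le_card h3
    rw [card_eq_three.2 ⟨p, q, r, hpq, hpr, hqr, rfl⟩] at this
    have := h _ (hP.ln_mem hpq)
    omega
  · intro h l hl
    by_contra hcon
    push Not at hcon
    obtain ⟨a, ha, b, hb, c, hc, hab, hac, hbc⟩ := two_lt_card.1 hcon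
    obtain ⟨hal, haS⟩ := mem_inter.1 ha
    obtain ⟨hbl, hbS⟩ := mem_inter.1 hb
    obtain ⟨hcl, hcS⟩ := mem_inter.1 hc
    apply h a haS b hbS c hcS hab hac hbc
    rw [hP.ln_eq hab hl hal hbl]
    exact hcl

/-- Counting the points on the lines through `x` avoiding `Q` and the lines `P`. -/
theorem Plane.card_fiber (hP : Plane L) (x : α) (Q : Finset α) (P : Finset (Finset α))
    (hxQ : x ∉ Q) (hPL : ∀ p ∈ P, p ∈ L) (hPx : ∀ p ∈ P, x ∉ p)
    (hPd : ∀ m ∈ L, x ∈ m → (∀ q ∈ Q, q ∉ m) → ∀ p ∈ P, ∀ p' ∈ P, p ≠ p' → ∀ z ∈ m, z ∈ p → z ∉ p')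
    {m : Finset α} (hm : m ∈ L) (hxm : x ∈ m) (hQm : ∀ q ∈ Q, q ∉ m) :
    (((univ : Finset α).filter (fun z => z ≠ x ∧ (∀ q ∈ Q, z ∉ ln L x q) ∧ ∀ p ∈ P, z ∉ p)).filter
      (fun z => ln L x z = m)).card = 4 - P.card := by
  classical
  have hneQ : ∀ q ∈ Q, x ≠ q := fun q hq h => hxQ (h ▸ hq)
  have h1 : ((univ : Finset α).filter
      (fun z => z ≠ x ∧ (∀ q ∈ Q, z ∉ ln L x q) ∧ ∀ p ∈ P, z ∉ p)).filter
      (fun z => ln L x z = m) = (m.erase x) \ (m.erase x).filter (fun z => ∃ p ∈ P, z ∈ p) := by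
    ext z
    simp only [mem_filter, mem_univ, true_and, mem_sdiff, mem_erase, not_and, not_exists]
    constructor
    · rintro ⟨⟨hzx, hzQ, hzP⟩, rfl⟩
      exact ⟨⟨hzx, hP.right_mem hzx.symm⟩, fun _ p hp hzp => hzP p hp hzp⟩
    · rintro ⟨⟨hzx, hzm⟩, hzP⟩
      refine ⟨⟨hzx, ?_, fun p hp hzp => hzP ⟨hzx, hzm⟩ p hp hzp⟩, hP.ln_eq hzx.symm hm hxm hzm⟩
      intro q hq hzq
      have := hP.line_eq_of_two hm (hP.ln_mem (hneQ q hq)) hzx.symm hxm hzm
        (hP.left_mem (hneQ q hq)) hzq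
      exact hQm q hq (this ▸ hP.right_mem (hneQ q hq))
  rw [h1, card_sdiff_of_subset (filter_subset _ _), card_erase_of_mem hxm, hP.card_line hm]
  -- the removed points are in bijection with `P`
  have hpm : ∀ p ∈ P, p ≠ m := fun p hp h => hPx p hp (h ▸ hxm)
  haveI : Nonempty α := ⟨x⟩
  choose! f hf1 hf2 using fun p (hp : p ∈ P) => hP.exists_meet hm (hPL p hp) (hpm p hp).symm
  have h2 : (m.erase x).filter (fun z => ∃ p ∈ P, z ∈ p) = P.image f := by
    ext z
    simp only [mem_filter, mem_erase, mem_image]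
    constructor
    · rintro ⟨⟨hzx, hzm⟩, p, hp, hzp⟩
      refine ⟨p, hp, ?_⟩
      by_contra hne
      exact hpm p hp (hP.line_eq_of_two (hPL p hp) hm hne (hf2 p hp) hzp (hf1 p hp) hzm).symm.symm
    · rintro ⟨p, hp, rfl⟩
      refine ⟨⟨?_, hf1 p hp⟩, p, hp, hf2 p hp⟩
      intro h
      exact hPx p hp (h ▸ hf2 p hp)
  rw [h2, card_image_of_injOn]
  intro p hp p' hp' hff
  by_contra hne
  have hp0 : p ∈ P := hp
  have hp0' : p' ∈ P := hp'
  exact hPd m hm hxm hQm p hp0 p' hp0' hne (f p) (hf1 p hp0) (hf2 p hp0) (by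
    have : f p = f p' := hff
    rw [this]; exact hf2 p' hp0')

/-- The number of points off the lines `x q` and the lines in `P`. -/
theorem Plane.card_off (hP : Plane L) (x : α) (Q : Finset α) (P : Finset (Finset α))
    (hxQ : x ∉ Q) (hQ : ∀ q ∈ Q, ∀ q' ∈ Q, q ≠ q' → q' ∉ ln L x q)
    (hPL : ∀ p ∈ P, p ∈ L) (hPx : ∀ p ∈ P, x ∉ p)
    (hPd : ∀ m ∈ L, x ∈ m → (∀ q ∈ Q, q ∉ m) → ∀ p ∈ P, ∀ p' ∈ P, p ≠ p' → ∀ z ∈ m, z ∈ p → z ∉ p') :
    ((univ : Finset α).filter (fun z => z ≠ x ∧ (∀ q ∈ Q, z ∉ ln L x q) ∧ ∀ p ∈ P, z ∉ p)).card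
      = (5 - Q.card) * (4 - P.card) := by
  classical
  have hneQ : ∀ q ∈ Q, x ≠ q := fun q hq h => hxQ (h ▸ hq)
  set M := pencil L x \ Q.image (ln L x) with hMdef
  have hM : M.card = 5 - Q.card := by
    rw [hMdef, card_sdiff_of_subset, hP.card_pencil, card_image_of_injOn]
    · intro q hq q' hq' heq
      by_contra hne
      apply hQ q hq q' hq' hne
      have : ln L x q = ln L x q' := heq
      rw [this]
      exact hP.right_mem (hneQ q' hq')
    · intro m hm
      obtain ⟨q, hq, rfl⟩ := mem_image.1 hm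
      exact mem_pencil.2 ⟨hP.ln_mem (hneQ q hq), hP.left_mem (hneQ q hq)⟩
  have hmem : ∀ m ∈ M, m ∈ L ∧ x ∈ m ∧ ∀ q ∈ Q, q ∉ m := by
    intro m hm
    obtain ⟨h1, h2⟩ := mem_sdiff.1 hm
    obtain ⟨hmL, hxm⟩ := mem_pencil.1 h1
    refine ⟨hmL, hxm, fun q hq hqm => h2 ?_⟩
    exact mem_image.2 ⟨q, hq, hP.ln_eq (hneQ q hq) hmL hxm hqm⟩
  have hmap : ∀ z ∈ (univ : Finset α).filter
      (fun z => z ≠ x ∧ (∀ q ∈ Q, z ∉ ln L x q) ∧ ∀ p ∈ P, z ∉ p), ln L x z ∈ M := by
    intro z hz
    obtain ⟨hzx, hzQ, -⟩ := (mem_filter.1 hz).2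
    refine mem_sdiff.2 ⟨mem_pencil.2 ⟨hP.ln_mem hzx.symm, hP.left_mem hzx.symm⟩, ?_⟩
    intro h
    obtain ⟨q, hq, hqe⟩ := mem_image.1 h
    exact hzQ q hq (by rw [hqe]; exact hP.right_mem hzx.symm)
  rw [card_eq_sum_card_fiberwise hmap,
    sum_congr rfl (fun m hm => hP.card_fiber x Q P hxQ hPL hPx hPd (hmem m hm).1 (hmem m hm).2.1
      (hmem m hm).2.2), sum_const, smul_eq_mul, hM]

open Classical in
/-- The points extending an independent set. -/
noncomputable def Ext (L : Set (Finset α)) (S : Finset α) : Finset α :=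
  univ.filter (fun z => z ∉ S ∧ Indep L (insert z S))

theorem Plane.mem_ext_iff (hP : Plane L) {S : Finset α} (hS : Indep L S) {z : α} :
    z ∈ Ext L S ↔ z ∉ S ∧ ∀ p ∈ S, ∀ q ∈ S, p ≠ q → z ∉ ln L p q := by
  classical
  simp only [Ext, mem_filter, mem_univ, true_and]
  constructor
  · rintro ⟨hz, hI⟩
    refine ⟨hz, fun p hp q hq hpq hzl => ?_⟩
    have hzp : z ≠ p := fun h => hz (h ▸ hp)
    have hzq : z ≠ q := fun h => hz (h ▸ hq)
    exact (hP.indep_iff.1 hI) p (mem_insert_of_mem hp) q (mem_insert_of_mem hq) z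
      (mem_insert_self _ _) hpq hzp.symm hzq.symm hzl
  · rintro ⟨hz, hl⟩
    refine ⟨hz, hP.indep_iff.2 ?_⟩
    have hS' := hP.indep_iff.1 hS
    intro p hp q hq r hr hpq hpr hqr hrl
    rcases mem_insert.1 hp with hpz | hp1
    · -- `p = z`
      rcases mem_insert.1 hq with hqz | hq1
      · exact hpq (hpz.trans hqz.symm)
      rcases mem_insert.1 hr with hrz | hr1
      · exact hpr (hpz.trans hrz.symm)
      apply hl q hq1 r hr1 hqr
      rw [hP.ln_eq hqr (hP.ln_mem hpq) (hP.right_mem hpq) hrl, ← hpz]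
      exact hP.left_mem hpq
    · rcases mem_insert.1 hq with hqz | hq1
      · -- `q = z`
        rcases mem_insert.1 hr with hrz | hr1
        · exact hqr (hqz.trans hrz.symm)
        apply hl p hp1 r hr1 hpr
        rw [hP.ln_eq hpr (hP.ln_mem hpq) (hP.left_mem hpq) hrl, ← hqz]
        exact hP.right_mem hpq
      · rcases mem_insert.1 hr with hrz | hr1
        · rw [hrz] at hrl
          exact hl p hp1 q hq1 hpq hrl
        · exact hS' p hp1 q hq1 r hr1 hpq hpr hqr hrl

/-- Extensions in terms of `x`, `Q` and the lines joining points of `Q`. -/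
theorem Plane.ext_insert (hP : Plane L) {x : α} {Q : Finset α} (hxQ : x ∉ Q)
    (hS : Indep L (insert x Q)) (P : Finset (Finset α))
    (hP1 : ∀ p ∈ P, ∃ q ∈ Q, ∃ q' ∈ Q, q ≠ q' ∧ p = ln L q q')
    (hP2 : ∀ q ∈ Q, ∀ q' ∈ Q, q ≠ q' → ln L q q' ∈ P) :
    Ext L (insert x Q) =
      univ.filter (fun z => z ≠ x ∧ (∀ q ∈ Q, z ∉ ln L x q) ∧ ∀ p ∈ P, z ∉ p) := by
  classical
  have hneQ : ∀ q ∈ Q, x ≠ q := fun q hq h => hxQ (h ▸ hq)
  ext z
  rw [hP.mem_ext_iff hS]
  simp only [mem_filter, mem_univ, true_and]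
  constructor
  · rintro ⟨hz, hl⟩
    refine ⟨fun h => hz (h ▸ mem_insert_self _ _), fun q hq => ?_, fun p hp hzp => ?_⟩
    · exact hl x (mem_insert_self _ _) q (mem_insert_of_mem hq) (hneQ q hq)
    · obtain ⟨q, hq, q', hq', hne, rfl⟩ := hP1 p hp
      exact hl q (mem_insert_of_mem hq) q' (mem_insert_of_mem hq') hne hzp
  · rintro ⟨hzx, hzQ, hzP⟩
    refine ⟨?_, fun p hp q hq hpq => ?_⟩
    · intro hz
      rcases mem_insert.1 hz with h | h
      · exact hzx h
      · exact hzQ z h (hP.right_mem (hneQ z h))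
    · rcases mem_insert.1 hp with hpx | hp1
      · rcases mem_insert.1 hq with hqx | hq1
        · exact absurd (hpx.trans hqx.symm) hpq
        · rw [hpx]; exact hzQ q hq1
      · rcases mem_insert.1 hq with hqx | hq1
        · rw [hP.ln_comm hpq, hqx]; exact hzQ p hp1
        · exact hzP _ (hP2 p hp1 q hq1 hpq)

theorem Plane.indep_of_card_le_two {S : Finset α} (hS : S.card ≤ 2) : Indep L S :=
  fun _ _ => (card_le_card inter_subset_right).trans hS

theorem Plane.card_ext_two (hP : Plane L) {S : Finset α} (hS : S.card = 2) :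
    (Ext L S).card = 16 := by
  classical
  obtain ⟨x, y, hxy, rfl⟩ := card_eq_two.1 hS
  have hI : Indep L (insert x {y}) := Plane.indep_of_card_le_two (by simpa using hS.le)
  have hxQ : x ∉ ({y} : Finset α) := by simpa using hxy
  rw [hP.ext_insert hxQ hI ∅ (by simp) (by
    intro q hq q' hq' hne
    simp only [mem_singleton] at hq hq'
    exact absurd (hq.trans hq'.symm) hne)]
  rw [hP.card_off x {y} ∅ hxQ]
  · simp
  · intro q hq q' hq' hne
    simp only [mem_singleton] at hq hq'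
    exact absurd (hq.trans hq'.symm) hne
  · simp
  · simp
  · simp

theorem Plane.card_ext_three (hP : Plane L) {S : Finset α} (hS : S.card = 3) (hI : Indep L S) :
    (Ext L S).card = 9 := by
  classical
  obtain ⟨x, y, w, hxy, hxw, hyw, rfl⟩ := card_eq_three.1 hS
  have hI' := hP.indep_iff.1 hI
  have hxQ : x ∉ ({y, w} : Finset α) := by simp [hxy, hxw]
  have hPeq : ∀ q ∈ ({y, w} : Finset α), ∀ q' ∈ ({y, w} : Finset α), q ≠ q' →
      ln L q q' = ln L y w := by
    intro q hq q' hq' hne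
    simp only [mem_insert, mem_singleton] at hq hq'
    rcases hq with rfl | rfl <;> rcases hq' with rfl | rfl
    · exact absurd rfl hne
    · rfl
    · exact hP.ln_comm hne
    · exact absurd rfl hne
  rw [hP.ext_insert hxQ hI {ln L y w} (by
    intro p hp
    rw [mem_singleton] at hp
    exact ⟨y, by simp, w, by simp, hyw, hp⟩) (by
    intro q hq q' hq' hne
    rw [mem_singleton]; exact hPeq q hq q' hq' hne)]
  rw [hP.card_off x {y, w} {ln L y w} hxQ]
  · rw [card_pair hyw, card_singleton]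
  · intro q hq q' hq' hne
    simp only [mem_insert, mem_singleton] at hq hq'
    rcases hq with rfl | rfl <;> rcases hq' with rfl | rfl
    · exact absurd rfl hne
    · exact hI' x (by simp) q (by simp) q' (by simp) hxy hxw hne
    · exact hI' x (by simp) q (by simp) q' (by simp) hxw hxy hne
    · exact absurd rfl hne
  · intro p hp
    rw [mem_singleton] at hp
    rw [hp]; exact hP.ln_mem hyw
  · intro p hp
    rw [mem_singleton] at hp
    rw [hp]
    exact hI' y (by simp) w (by simp) x (by simp) hyw hxy.symm hxw.symm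
  · intro m _ _ _ p hp p' hp' hne
    rw [mem_singleton] at hp hp'
    exact absurd (hp.trans hp'.symm) hne

/-- The data attached to a point of an independent 4-set. -/
theorem Plane.four_setup (hP : Plane L) {S : Finset α} (hS : S.card = 4) (hI : Indep L S)
    {x : α} (hx : x ∈ S) :
    ∃ (Q : Finset α) (P : Finset (Finset α)), S = insert x Q ∧ x ∉ Q ∧ Q.card = 3 ∧ P.card = 3 ∧
      (∀ q ∈ Q, ∀ q' ∈ Q, q ≠ q' → q' ∉ ln L x q) ∧
      (∀ p ∈ P, p ∈ L) ∧ (∀ p ∈ P, x ∉ p) ∧
      (∀ m ∈ L, x ∈ m → (∀ q ∈ Q, q ∉ m) → ∀ p ∈ P, ∀ p' ∈ P, p ≠ p' → ∀ z ∈ m, z ∈ p → z ∉ p') ∧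
      Ext L S = univ.filter (fun z => z ≠ x ∧ (∀ q ∈ Q, z ∉ ln L x q) ∧ ∀ p ∈ P, z ∉ p) := by
  classical
  have hQc : (S.erase x).card = 3 := by rw [card_erase_of_mem hx, hS]
  obtain ⟨b, c, d, hbc, hbd, hcd, hQ⟩ := card_eq_three.1 hQc
  have hSeq : S = insert x {b, c, d} := by rw [← hQ, insert_erase hx]
  have hxQ : x ∉ ({b, c, d} : Finset α) := by rw [← hQ]; exact notMem_erase x S
  have hxb : x ≠ b := fun h => hxQ (by simp [h])
  have hxc : x ≠ c := fun h => hxQ (by simp [h])
  have hxd : x ≠ d := fun h => hxQ (by simp [h])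
  have hI' := hP.indep_iff.1 hI
  have hxS : x ∈ S := hx
  have hbS : b ∈ S := by rw [hSeq]; simp
  have hcS : c ∈ S := by rw [hSeq]; simp
  have hdS : d ∈ S := by rw [hSeq]; simp
  have hbc' : ln L b c ≠ ln L b d := fun h =>
    hI' b hbS c hcS d hdS hbc hbd hcd (by rw [h]; exact hP.right_mem hbd)
  have hbd' : ln L b c ≠ ln L c d := fun h =>
    hI' b hbS c hcS d hdS hbc hbd hcd (by rw [h]; exact hP.right_mem hcd)
  have hcd' : ln L b d ≠ ln L c d := fun h =>
    hI' b hbS d hdS c hcS hbd hbc hcd.symm (by rw [h]; exact hP.left_mem hcd)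
  have hPc : ({ln L b c, ln L b d, ln L c d} : Finset (Finset α)).card = 3 :=
    card_eq_three.2 ⟨_, _, _, hbc', hbd', hcd', rfl⟩
  -- two of the lines meet at a point of `Q` only
  have h2 : ∀ l l' : Finset α, l ∈ L → l' ∈ L → l ≠ l' → ∀ u z, u ∈ l → u ∈ l' → z ∈ l → z ∈ l' →
      z = u := by
    intro l l' hl hl' hne u z hu hu' hz hz'
    by_contra hzu
    exact hne (hP.line_eq_of_two hl hl' hzu hz hu hz' hu')
  have hLbc := hP.ln_mem hbc
  have hLbd := hP.ln_mem hbd
  have hLcd := hP.ln_mem hcd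
  refine ⟨{b, c, d}, {ln L b c, ln L b d, ln L c d}, hSeq, hxQ, by
    rw [← hQ]; exact hQc, hPc, ?_, ?_, ?_, ?_, ?_⟩
  · intro q hq q' hq' hne
    have hqS : q ∈ S := by rw [hSeq]; exact mem_insert_of_mem hq
    have hq'S : q' ∈ S := by rw [hSeq]; exact mem_insert_of_mem hq'
    have hxq : x ≠ q := fun h => hxQ (h ▸ hq)
    have hxq' : x ≠ q' := fun h => hxQ (h ▸ hq')
    exact hI' x hxS q hqS q' hq'S hxq hxq' hne
  · intro p hp
    simp only [mem_insert, mem_singleton] at hp
    rcases hp with rfl | rfl | rfl <;> assumption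
  · intro p hp
    simp only [mem_insert, mem_singleton] at hp
    rcases hp with rfl | rfl | rfl
    · exact hI' b hbS c hcS x hxS hbc hxb.symm hxc.symm
    · exact hI' b hbS d hdS x hxS hbd hxb.symm hxd.symm
    · exact hI' c hcS d hdS x hxS hcd hxc.symm hxd.symm
  · intro m _ _ hQm p hp p' hp' hne z hzm hzp hzp'
    have hb := hQm b (by simp)
    have hc := hQm c (by simp)
    have hd := hQm d (by simp)
    simp only [mem_insert, mem_singleton] at hp hp'
    have rb1 := hP.left_mem hbc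
    have rc1 := hP.right_mem hbc
    have rb2 := hP.left_mem hbd
    have rd2 := hP.right_mem hbd
    have rc3 := hP.left_mem hcd
    have rd3 := hP.right_mem hcd
    rcases hp with rfl | rfl | rfl <;> rcases hp' with rfl | rfl | rfl
    · exact hne rfl
    · exact hb (h2 _ _ hLbc hLbd hbc' b z rb1 rb2 hzp hzp' ▸ hzm)
    · exact hc (h2 _ _ hLbc hLcd hbd' c z rc1 rc3 hzp hzp' ▸ hzm)
    · exact hb (h2 _ _ hLbd hLbc hbc'.symm b z rb2 rb1 hzp hzp' ▸ hzm)
    · exact hne rfl
    · exact hd (h2 _ _ hLbd hLcd hcd' d z rd2 rd3 hzp hzp' ▸ hzm)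
    · exact hc (h2 _ _ hLcd hLbc hbd'.symm c z rc3 rc1 hzp hzp' ▸ hzm)
    · exact hd (h2 _ _ hLcd hLbd hcd'.symm d z rd3 rd2 hzp hzp' ▸ hzm)
    · exact hne rfl
  · have := hP.ext_insert hxQ (hSeq ▸ hI) {ln L b c, ln L b d, ln L c d} (by
      intro p hp
      simp only [mem_insert, mem_singleton] at hp
      rcases hp with rfl | rfl | rfl
      · exact ⟨b, by simp, c, by simp, hbc, rfl⟩
      · exact ⟨b, by simp, d, by simp, hbd, rfl⟩
      · exact ⟨c, by simp, d, by simp, hcd, rfl⟩) (by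
      intro q hq q' hq' hne
      simp only [mem_insert, mem_singleton] at hq hq' ⊢
      rcases hq with rfl | rfl | rfl <;> rcases hq' with rfl | rfl | rfl
      · exact absurd rfl hne
      · exact Or.inl rfl
      · exact Or.inr (Or.inl rfl)
      · exact Or.inl (hP.ln_comm hne)
      · exact absurd rfl hne
      · exact Or.inr (Or.inr rfl)
      · exact Or.inr (Or.inl (hP.ln_comm hne))
      · exact Or.inr (Or.inr (hP.ln_comm hne))
      · exact absurd rfl hne)
    rw [hSeq]; exact this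

theorem Plane.card_ext_four (hP : Plane L) {S : Finset α} (hS : S.card = 4) (hI : Indep L S) :
    (Ext L S).card = 2 := by
  classical
  obtain ⟨x, hx⟩ : S.Nonempty := card_pos.1 (by omega)
  obtain ⟨Q, P, -, hxQ, hQc, hPc, hQ, hPL, hPx, hPd, hE⟩ := hP.four_setup hS hI hx
  rw [hE, hP.card_off x Q P hxQ hQ hPL hPx hPd, hQc, hPc]

/-- Two extension points of an independent 4-set are not collinear with a point of it. -/
theorem Plane.ext_four_not_collinear (hP : Plane L) {S : Finset α} (hS : S.card = 4)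
    (hI : Indep L S) {x e f : α} (hx : x ∈ S) (he : e ∈ Ext L S) (hf : f ∈ Ext L S) (hef : e ≠ f) :
    f ∉ ln L x e := by
  classical
  intro hfl
  obtain ⟨Q, P, -, hxQ, hQc, hPc, hQ, hPL, hPx, hPd, hE⟩ := hP.four_setup hS hI hx
  have hxe : x ≠ e := fun h => ((hP.mem_ext_iff hI).1 he).1 (h ▸ hx)
  have hxf : x ≠ f := fun h => ((hP.mem_ext_iff hI).1 hf).1 (h ▸ hx)
  have hm := hP.ln_mem hxe
  have hneQ : ∀ q ∈ Q, x ≠ q := fun q hq h => hxQ (h ▸ hq)
  have he' := he
  rw [hE, mem_filter] at he'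
  have hQm : ∀ q ∈ Q, q ∉ ln L x e := by
    intro q hq hql
    have h1 := hP.line_eq_of_two hm (hP.ln_mem (hneQ q hq)) (hneQ q hq) (hP.left_mem hxe) hql
      (hP.left_mem (hneQ q hq)) (hP.right_mem (hneQ q hq))
    exact he'.2.2.1 q hq (h1 ▸ hP.right_mem hxe)
  have hc := hP.card_fiber x Q P hxQ hPL hPx hPd hm (hP.left_mem hxe) hQm
  rw [hPc, ← hE] at hc
  have h1 : e ∈ (Ext L S).filter (fun z => ln L x z = ln L x e) := mem_filter.2 ⟨he, rfl⟩
  have h2 : f ∈ (Ext L S).filter (fun z => ln L x z = ln L x e) :=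
    mem_filter.2 ⟨hf, hP.ln_eq hxf hm (hP.left_mem hxe) hfl⟩
  exact hef (card_le_one.1 (by omega) e h1 f h2)

/-- An independent 4-set together with its two extensions is independent. -/
theorem Plane.indep_union_ext (hP : Plane L) {S : Finset α} (hS : S.card = 4) (hI : Indep L S) :
    Indep L (S ∪ Ext L S) := by
  classical
  have hE := hP.card_ext_four hS hI
  obtain ⟨e, f, hef, hEq⟩ := card_eq_two.1 hE
  have hI' := hP.indep_iff.1 hI
  have hmem := fun z => hP.mem_ext_iff hI (z := z)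
  rw [hP.indep_iff]
  intro p hp q hq r hr hpq hpr hqr hrl
  have hpL := hP.ln_mem hpq
  have hpl := hP.left_mem hpq
  have hql := hP.right_mem hpq
  rcases mem_union.1 hp with hp1 | hp1 <;> rcases mem_union.1 hq with hq1 | hq1 <;>
    rcases mem_union.1 hr with hr1 | hr1
  · exact hI' p hp1 q hq1 r hr1 hpq hpr hqr hrl
  · exact ((hmem r).1 hr1).2 p hp1 q hq1 hpq hrl
  · -- `q` extension, `p, r` in `S`
    apply ((hmem q).1 hq1).2 p hp1 r hr1 hpr
    rw [hP.ln_eq hpr hpL hpl hrl]; exact hql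
  · exact hP.ext_four_not_collinear hS hI hp1 hq1 hr1 hqr hrl
  · -- `p` extension, `q, r` in `S`
    apply ((hmem p).1 hp1).2 q hq1 r hr1 hqr
    rw [hP.ln_eq hqr hpL hql hrl]; exact hpl
  · -- `q ∈ S`, `p, r` extensions
    apply hP.ext_four_not_collinear hS hI hq1 hp1 hr1 hpr
    rw [hP.ln_eq hpq.symm hpL hql hpl]; exact hrl
  · -- `r ∈ S`, `p, q` extensions
    apply hP.ext_four_not_collinear hS hI hr1 hp1 hq1 hpq
    rw [hP.ln_eq hpr.symm hpL hrl hpl]; exact hql
  · -- three distinct points in a 2-set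
    rw [hEq] at hp1 hq1 hr1
    simp only [mem_insert, mem_singleton] at hp1 hq1 hr1
    rcases hp1 with rfl | rfl <;> rcases hq1 with rfl | rfl <;> rcases hr1 with rfl | rfl <;>
      simp_all

open Classical in
/-- Independent `k`-sets. -/
noncomputable def I (L : Set (Finset α)) (k : ℕ) : Finset (Finset α) :=
  (powersetCard k univ).filter (Indep L)

theorem mem_I {k : ℕ} {S : Finset α} : S ∈ I L k ↔ S.card = k ∧ Indep L S := by
  simp [I, mem_powersetCard]

/-- Double counting of inclusions between independent sets. -/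
theorem double_count {k j e : ℕ} (he : ∀ S ∈ I L k, ((I L j).filter (fun T => S ⊆ T)).card = e) :
    (I L k).card * e = (I L j).card * j.choose k := by
  classical
  have h := sum_card_bipartiteAbove_eq_sum_card_bipartiteBelow (s := I L k) (t := I L j)
    (fun S T => S ⊆ T)
  have h1 : ∑ a ∈ I L k, (bipartiteAbove (fun S T : Finset α => S ⊆ T) (I L j) a).card =
      (I L k).card * e := by
    have h0 : ∀ a ∈ I L k, (bipartiteAbove (fun S T : Finset α => S ⊆ T) (I L j) a).card = e :=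
      fun a ha => by
        rw [← he a ha]
        rfl
    rw [sum_congr rfl h0, sum_const, smul_eq_mul]
  have h2 : ∑ b ∈ I L j, (bipartiteBelow (fun S T : Finset α => S ⊆ T) (I L k) b).card =
      (I L j).card * j.choose k := by
    have : ∀ b ∈ I L j, (bipartiteBelow (fun S T : Finset α => S ⊆ T) (I L k) b).card =
        j.choose k := by
      intro b hb
      obtain ⟨hbc, hbI⟩ := mem_I.1 hb
      have : bipartiteBelow (fun S T : Finset α => S ⊆ T) (I L k) b = powersetCard k b := by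
        ext S
        simp only [bipartiteBelow, mem_filter, mem_powersetCard, mem_I]
        constructor
        · rintro ⟨⟨h1, -⟩, h2⟩; exact ⟨h2, h1⟩
        · rintro ⟨h1, h2⟩; exact ⟨⟨h2, hbI.mono h1⟩, h1⟩
      rw [this, card_powersetCard, hbc]
    rw [sum_congr rfl this, sum_const, smul_eq_mul]
  rw [← h1, h, h2]

/-- The sets above an independent set are counted by its extensions. -/
theorem up_card {k : ℕ} {S : Finset α} (hS : S ∈ I L k) :
    ((I L (k + 1)).filter (fun T => S ⊆ T)).card = (Ext L S).card := by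
  classical
  obtain ⟨hSc, hSI⟩ := mem_I.1 hS
  have : (I L (k + 1)).filter (fun T => S ⊆ T) = (Ext L S).image (fun z => insert z S) := by
    ext T
    simp only [mem_filter, mem_I, mem_image, Ext, mem_univ, true_and]
    constructor
    · rintro ⟨⟨hTc, hTI⟩, hST⟩
      obtain ⟨z, hzT, hzS⟩ : ∃ z ∈ T, z ∉ S := by
        by_contra hcon
        push Not at hcon
        have := card_le_card hcon
        omega
      have hins : insert z S = T := by
        apply eq_of_subset_of_card_le (insert_subset hzT hST)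
        rw [card_insert_of_notMem hzS, hSc, hTc]
      exact ⟨z, ⟨hzS, hins ▸ hTI⟩, hins⟩
    · rintro ⟨z, ⟨hzS, hzI⟩, rfl⟩
      exact ⟨⟨by rw [card_insert_of_notMem hzS, hSc], hzI⟩, subset_insert _ _⟩
  rw [this, card_image_of_injOn]
  intro z hz z' hz' heq
  have hzS : z ∉ S := (mem_filter.1 hz).2.1
  have : z ∈ insert z' S := by
    have h : insert z S = insert z' S := heq
    rw [← h]; exact mem_insert_self _ _
  rcases mem_insert.1 this with h | h
  · exact h
  · exact absurd h hzS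

theorem card_I_two (hP : Plane L) : (I L 2).card = 210 := by
  classical
  have : I L 2 = powersetCard 2 univ := by
    ext S
    simp only [mem_I, mem_powersetCard, subset_univ, true_and]
    exact ⟨fun h => h.1, fun h => ⟨h, Plane.indep_of_card_le_two h.le⟩⟩
  rw [this, card_powersetCard, card_univ, hP.card]
  decide

theorem card_I_three (hP : Plane L) : (I L 3).card = 1120 := by
  have h := double_count (L := L) (k := 2) (j := 3) (e := 16) (fun S hS => by
    rw [up_card (k := 2) hS]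
    exact hP.card_ext_two (mem_I.1 hS).1)
  rw [card_I_two hP] at h
  simp [Nat.choose] at h
  omega

theorem card_I_four (hP : Plane L) : (I L 4).card = 2520 := by
  have h := double_count (L := L) (k := 3) (j := 4) (e := 9) (fun S hS => by
    rw [up_card (k := 3) hS]
    exact hP.card_ext_three (mem_I.1 hS).1 (mem_I.1 hS).2)
  rw [card_I_three hP] at h
  simp [Nat.choose] at h
  omega

/-- An independent 4-set lies in exactly one hyperoval. -/
theorem existsUnique_hyperoval (hP : Plane L) {S : Finset α} (hS : S.card = 4) (hI : Indep L S) :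
    ∃! H : Finset α, (H.card = 6 ∧ Indep L H) ∧ S ⊆ H := by
  classical
  have hE := hP.card_ext_four hS hI
  have hdisj : Disjoint S (Ext L S) := by
    rw [disjoint_left]
    intro z hz hz'
    exact ((hP.mem_ext_iff hI).1 hz').1 hz
  refine ⟨S ∪ Ext L S, ⟨⟨?_, hP.indep_union_ext hS hI⟩, subset_union_left⟩, ?_⟩
  · rw [card_union_of_disjoint hdisj, hS, hE]
  · rintro T ⟨⟨hTc, hTI⟩, hST⟩
    apply eq_of_subset_of_card_le
    · intro z hz
      by_cases hzS : z ∈ S
      · exact mem_union_left _ hzS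
      · apply mem_union_right
        simp only [Ext, mem_filter, mem_univ, true_and]
        exact ⟨hzS, hTI.mono (insert_subset hz hST)⟩
    · rw [card_union_of_disjoint hdisj, hS, hE, hTc]

theorem card_I_six (hP : Plane L) : (I L 6).card = 168 := by
  classical
  have h := double_count (L := L) (k := 4) (j := 6) (e := 1) (fun S hS => by
    obtain ⟨H, ⟨⟨hc, hHI⟩, hSH⟩, hu⟩ := existsUnique_hyperoval hP (mem_I.1 hS).1 (mem_I.1 hS).2
    rw [card_eq_one]
    refine ⟨H, ?_⟩
    ext T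
    simp only [mem_filter, mem_I, mem_singleton]
    constructor
    · rintro ⟨⟨h1, h2⟩, h3⟩; exact hu T ⟨⟨h1, h2⟩, h3⟩
    · rintro rfl; exact ⟨⟨hc, hHI⟩, hSH⟩)
  rw [card_I_four hP] at h
  simp [Nat.choose] at h
  omega

end Cfsg.Agent.Lib.BasicSteiner.Plane4
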