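import Mathlib
import Cfsg.Agent.Lib.BasicSteiner.Search

/-!
# The certified search with fixed base labels

The first `t0` labels are given in advance.  A successful check then says: every injective labelling of the first
`t0` labels extends to a labelling of all points which identifies the system with a fixed list of masks.  With a
check of rigidity this gives sharp `t0`-fold transitivity of the automorphism group.
-/

set_option autoImplicit false

namespace Cfsg.Agent.Lib.BasicSteiner.SearchFix

open Cfsg.Agent.Lib.BasicSteiner.Search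
open scoped Pointwise

section Step

variable {α : Type*} [DecidableEq α] [Fintype α] {n t k I M : ℕ} {B : Set (Finset α)}

/-- The main step: the block through `s` has a listed trace on the old labels, and its new points can be
labelled by the next labels. -/
theorem node_step' (hα : Fintype.card α = n) (hn : n ≤ 24) (hB : Cfsg.IsSteinerSystem t k B)
    (hI : ∀ b ∈ B, ∀ c ∈ B, b ≠ c → allowedB I (b ∩ c).card = true) (hM : ∀ x, allowedB I x = true → x ≤ M)
    {φ : ℕ → α} {m : ℕ} {K : List ℕ} (hG : Good B φ m K) {s : ℕ} {ks : List ℕ}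
    (h : nodeOK n t k I M s ks m K = true) :
    ∃ A ∈ ks, ∃ φ' : ℕ → α, A < Nat.shiftLeft 1 m ∧
      Good B φ' (m + Nat.sub k (pc A)) (mkBlock A (Nat.sub k (pc A)) m :: K) ∧ ∀ i, i < m → φ' i = φ i := by
  classical
  simp only [nodeOK, Bool.and_eq_true, forceNat_eq] at h
  obtain ⟨⟨⟨⟨-, hs1⟩, hs2⟩, hs3⟩, hs4⟩ := h
  have hsm : s < Nat.shiftLeft 1 m := Nat.blt_eq.mp hs1
  have hst : pc s = t := Nat.eq_of_beq_eq_true hs2
  have hbm : ∀ j, s.testBit j = true → j < m := fun j hj => testBit_lt hsm hj
  have hle : m ≤ 24 := hG.le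
  have hsub : bitsOf s ⊆ Finset.range m := by
    intro j hj
    exact Finset.mem_range.mpr (hbm j (mem_bitsOf.mp hj).2)
  -- the block through `s`
  have hcard : (blk φ s).card = t := by
    rw [card_blk hG.inj hsub, ← pc_eq, hst]
  obtain ⟨c₀, ⟨hc₀, hsc₀⟩, -⟩ := hB.2 (blk φ s) hcard
  have hc₀k : c₀.card = k := hB.1 c₀ hc₀
  -- the trace
  set U : Finset ℕ := (Finset.range m).filter (fun i => φ i ∈ c₀) with hU
  set Y : Finset ℕ := U.filter (fun i => s.testBit i = false) with hY
  set A : ℕ := Nat.lor s (maskL Y.toList) with hA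
  have htest : ∀ j, A.testBit j = (s.testBit j || decide (j ∈ Y)) := by
    intro j
    have e : A.testBit j = (s.testBit j || (maskL Y.toList).testBit j) := Nat.testBit_lor _ _ _
    rw [e]
    congr 1
    by_cases hj : j ∈ Y
    · simp [hj, (testBit_maskL Y.toList j).mpr (Finset.mem_toList.mpr hj)]
    · have : (maskL Y.toList).testBit j ≠ true := fun h' =>
        hj (Finset.mem_toList.mp ((testBit_maskL Y.toList j).mp h'))
      simp [hj, this]
  have hmemU : ∀ j, j ∈ bitsOf A ↔ j ∈ U := by
    intro j
    rw [mem_bitsOf, htest, hY, hU]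
    simp only [Bool.or_eq_true, decide_eq_true_eq, Finset.mem_filter, Finset.mem_range]
    constructor
    · rintro ⟨_, h1 | ⟨h1, _⟩⟩
      · have hjm := hbm j h1
        refine ⟨hjm, hsc₀ ?_⟩
        exact Finset.mem_image_of_mem _ (mem_bitsOf.mpr ⟨by omega, h1⟩)
      · exact h1
    · rintro ⟨h1, h2⟩
      refine ⟨by omega, ?_⟩
      by_cases h3 : s.testBit j = true
      · exact Or.inl h3
      · exact Or.inr ⟨⟨h1, h2⟩, by simpa using h3⟩
  have hbitsU : bitsOf A = U := Finset.ext hmemU
  have hAsub : bitsOf A ⊆ Finset.range m := by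
    rw [hbitsU]
    exact Finset.filter_subset _ _
  have hAlt : A < Nat.shiftLeft 1 m := by
    have h2m : Nat.shiftLeft 1 m = 2 ^ m := Nat.one_shiftLeft m
    rw [h2m]
    apply Nat.lt_pow_two_of_testBit
    intro j hj
    rw [htest]
    have h1 : s.testBit j = false := by
      by_contra h'
      have := hbm j (by simpa using h')
      omega
    have h2 : j ∉ Y := by
      intro h'
      have := Finset.mem_range.mp (Finset.mem_filter.mp (Finset.mem_filter.mp h').1).1
      omega
    simp [h1, h2]
  have hYsub : Y ⊆ Finset.range m := fun j hj => (Finset.mem_filter.mp (Finset.mem_filter.mp hj).1).1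
  have hYs0 : ∀ j ∈ Y, s.testBit j = false := fun j hj => (Finset.mem_filter.mp hj).2
  have hUcard : U.card ≤ k := by
    rw [← hc₀k]
    have : (U.image φ).card = U.card := by
      apply Finset.card_image_of_injOn
      intro a ha b hb he
      have ha' : a < m := Finset.mem_range.mp (Finset.mem_filter.mp ha).1
      have hb' : b < m := Finset.mem_range.mp (Finset.mem_filter.mp hb).1
      exact hG.inj ha' hb' he
    rw [← this]
    apply Finset.card_le_card
    intro a ha
    obtain ⟨i, hi, rfl⟩ := Finset.mem_image.mp ha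
    exact (Finset.mem_filter.mp hi).2
  have hpcA : pc A = U.card := by
    rw [pc_eq, hbitsU]
  -- `Y` has the right size
  have hYlen : Y.card ≤ Nat.sub k t := by
    have h1 : Y ∪ bitsOf s = U := by
      ext j
      rw [← hmemU j, mem_bitsOf, htest]
      simp only [Finset.mem_union, mem_bitsOf, Bool.or_eq_true, decide_eq_true_eq]
      constructor
      · rintro (h1 | ⟨h1, h2⟩)
        · have := Finset.mem_range.mp (hYsub h1)
          exact ⟨by omega, Or.inr h1⟩
        · exact ⟨h1, Or.inl h2⟩
      · rintro ⟨h1, h2 | h2⟩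
        · exact Or.inr ⟨h1, h2⟩
        · exact Or.inl h2
    have h2 : Disjoint Y (bitsOf s) := by
      rw [Finset.disjoint_left]
      intro j hj hj'
      have h3 := hYs0 j hj
      rw [(mem_bitsOf.mp hj').2] at h3
      simp at h3
    have h3 := Finset.card_union_of_disjoint h2
    rw [h1, ← pc_eq, hst] at h3
    change Y.card ≤ k - t
    omega
  -- the new points
  set W : Finset α := c₀ \ (Finset.range m).image φ with hW
  have hinter : c₀ ∩ (Finset.range m).image φ = U.image φ := by
    ext a
    simp only [Finset.mem_inter, Finset.mem_image, hU, Finset.mem_filter]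
    constructor
    · rintro ⟨h1, i, hi, rfl⟩
      exact ⟨i, ⟨hi, h1⟩, rfl⟩
    · rintro ⟨i, ⟨hi, h1⟩, rfl⟩
      exact ⟨h1, i, hi, rfl⟩
  have hUim : (U.image φ).card = U.card := by
    apply Finset.card_image_of_injOn
    intro a ha b hb he
    have ha' : a < m := Finset.mem_range.mp (Finset.mem_filter.mp ha).1
    have hb' : b < m := Finset.mem_range.mp (Finset.mem_filter.mp hb).1
    exact hG.inj ha' hb' he
  have hWcard : W.card = k - U.card := by
    have := Finset.card_sdiff_add_card_inter c₀ ((Finset.range m).image φ)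
    rw [hinter, hUim, hc₀k] at this
    rw [hW]
    omega
  have himcard : ((Finset.range m).image φ).card = m := by
    rw [Finset.card_image_of_injOn, Finset.card_range]
    intro a ha b hb he
    exact hG.inj (Finset.mem_range.mp (Finset.mem_coe.mp ha)) (Finset.mem_range.mp (Finset.mem_coe.mp hb)) he
  have hWn : W.card ≤ n - m := by
    have h1 : W ⊆ Finset.univ \ (Finset.range m).image φ := by
      intro a ha
      simp only [hW, Finset.mem_sdiff] at ha
      simp [ha.2]
    have h2 := Finset.card_le_card h1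
    rw [Finset.card_sdiff_of_subset (Finset.subset_univ _), Finset.card_univ, hα, himcard] at h2
    exact h2
  set r : ℕ := k - U.card with hr
  -- the conflicts
  have hallowed : ∀ b ∈ K, allowedB I (pc (Nat.land b A)) = true := by
    intro b hb
    have hbs := hG.bits b hb
    have hne : blk φ b ≠ c₀ := by
      intro he
      apply uncoveredB_of_mem hs3 hb
      apply Nat.eq_of_testBit_eq
      intro j
      have e : (Nat.land s b).testBit j = (s.testBit j && b.testBit j) := Nat.testBit_land _ _ _
      rw [e]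
      by_cases h1 : s.testBit j = true
      · have hjm := hbm j h1
        have h2 : φ j ∈ blk φ b := by
          rw [he]
          exact hsc₀ (Finset.mem_image_of_mem _ (mem_bitsOf.mpr ⟨by omega, h1⟩))
        have h3 := (mem_blk_iff hG.inj hbs hjm).mp h2
        rw [h1, (mem_bitsOf.mp h3).2]
        rfl
      · simp [h1]
    have h1 := hI _ (hG.mem b hb) _ hc₀ hne
    have h2 : blk φ b ∩ c₀ = blk φ (Nat.land b A) := by
      ext a
      simp only [blk, Finset.mem_inter, Finset.mem_image, bitsOf_land]
      constructor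
      · rintro ⟨⟨i, hi, rfl⟩, h3⟩
        have hi' : i < m := Finset.mem_range.mp (hbs hi)
        refine ⟨i, ⟨hi, ?_⟩, rfl⟩
        rw [hmemU, hU, Finset.mem_filter]
        exact ⟨Finset.mem_range.mpr hi', h3⟩
      · rintro ⟨i, ⟨hi, hi2⟩, rfl⟩
        refine ⟨⟨i, hi, rfl⟩, ?_⟩
        rw [hmemU, hU, Finset.mem_filter] at hi2
        exact hi2.2
    rw [h2] at h1
    have hland : bitsOf (Nat.land b A) ⊆ Finset.range m := by
      rw [bitsOf_land]
      exact Finset.inter_subset_left.trans hbs
    rw [card_blk hG.inj hland, ← pc_eq] at h1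
    exact h1
  -- the labels in the blocks meeting `s` in `M` labels do not occur
  have hYs : ∀ j ∈ Y, (Nat.lor s (forb M s K)).testBit j = false := by
    intro j hj
    have e : (Nat.lor s (forb M s K)).testBit j = (s.testBit j || (forb M s K).testBit j) :=
      Nat.testBit_lor _ _ _
    rw [e, hYs0 j hj, Bool.false_or, Bool.eq_false_iff]
    intro hF
    obtain ⟨b, hb, hb1, hb2⟩ := testBit_forb hF
    have h1 := hM _ (hallowed b hb)
    have hjU : j ∈ U := (Finset.mem_filter.mp hj).1
    have hjm : j < m := Finset.mem_range.mp (Finset.mem_filter.mp hjU).1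
    have h2 : pc (Nat.land b s) < pc (Nat.land b A) := by
      rw [pc_eq, pc_eq]
      apply Finset.card_lt_card
      rw [Finset.ssubset_iff_of_subset]
      · refine ⟨j, ?_, ?_⟩
        · rw [bitsOf_land]
          refine Finset.mem_inter.mpr ⟨mem_bitsOf.mpr ⟨by omega, hb2⟩, ?_⟩
          rw [hmemU]
          exact hjU
        · rw [bitsOf_land]
          intro h3
          have h4 := (mem_bitsOf.mp (Finset.mem_inter.mp h3).2).2
          rw [hYs0 j hj] at h4
          simp at h4
      · rw [bitsOf_land, bitsOf_land]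
        intro x hx
        have hx' := Finset.mem_inter.mp hx
        refine Finset.mem_inter.mpr ⟨hx'.1, ?_⟩
        rw [mem_bitsOf, htest]
        have h5 := (mem_bitsOf.mp hx'.2)
        simp [h5.1, h5.2]
    omega
  have hp := allExt_sound hs4 Y hYsub hYs hYlen A htest
  have hconf := conflictB_false hallowed
  have hmem : memB A ks = true := by
    rw [hconf, Bool.false_or, Bool.or_eq_true] at hp
    rcases hp with hp | hp
    · exfalso
      have h1 : (Nat.sub n m) < (Nat.sub k (pc A)) := Nat.blt_eq.mp hp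
      have h2 : Nat.sub n m = n - m := rfl
      have h3 : Nat.sub k (pc A) = k - pc A := rfl
      rw [h2, h3, hpcA, ← hr, ← hWcard] at h1
      omega
    · exact hp
  refine ⟨A, memB_iff.mp hmem, ?_⟩
  have hrA : Nat.sub k (pc A) = r := by
    change k - pc A = k - U.card
    rw [hpcA]
  rw [hrA]
  -- the new labelling
  let e : W ≃ Fin r := Finset.equivFinOfCardEq hWcard
  let φ' : ℕ → α := fun i => if i < m then φ i else
    if h : i - m < r then ((e.symm ⟨i - m, h⟩ : W) : α) else φ i
  have hφ1 : ∀ i, i < m → φ' i = φ i := fun i hi => by simp [φ', hi]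
  have hφ2 : ∀ i, m ≤ i → i < m + r → φ' i ∈ W := by
    intro i h1 h2
    have h3 : ¬ i < m := by omega
    have h4 : i - m < r := by omega
    simp only [φ', h3, h4, if_false, dif_pos]
    exact (e.symm _).2
  have hφ3 : ∀ i j, m ≤ i → i < m + r → m ≤ j → j < m + r → φ' i = φ' j → i = j := by
    intro i j h1 h2 h3 h4 he
    have h5 : ¬ i < m := by omega
    have h6 : i - m < r := by omega
    have h7 : ¬ j < m := by omega
    have h8 : j - m < r := by omega
    simp only [φ', h5, h6, h7, h8, if_false, dif_pos] at he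
    have := e.symm.injective (Subtype.ext he)
    have h9 := congrArg Fin.val this
    simp only at h9
    omega
  have hWnot : ∀ a ∈ W, ∀ i, i < m → a ≠ φ i := by
    intro a ha i hi he
    simp only [hW, Finset.mem_sdiff, Finset.mem_image, not_exists, not_and] at ha
    exact ha.2 i (Finset.mem_range.mpr hi) he.symm
  have hinj' : Set.InjOn φ' (Set.Iio (m + r)) := by
    intro i hi j hj he
    have hi' : i < m + r := hi
    have hj' : j < m + r := hj
    by_cases h1 : i < m <;> by_cases h2 : j < m
    · rw [hφ1 i h1, hφ1 j h2] at he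
      exact hG.inj h1 h2 he
    · exfalso
      rw [hφ1 i h1] at he
      exact hWnot _ (hφ2 j (by omega) hj') i h1 he.symm
    · exfalso
      rw [hφ1 j h2] at he
      exact hWnot _ (hφ2 i (by omega) hi') j h2 he
    · exact hφ3 i j (by omega) hi' (by omega) hj' he
  have hkeep : ∀ x, bitsOf x ⊆ Finset.range m → blk φ' x = blk φ x := by
    intro x hx
    unfold blk
    apply Finset.image_congr
    intro i hi
    exact hφ1 i (Finset.mem_range.mp (hx hi))
  have hmkbits : ∀ j, j ∈ bitsOf (mkBlock A r m) ↔ j ∈ U ∨ (m ≤ j ∧ j < m + r) := by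
    intro j
    rw [mem_bitsOf, testBit_mkBlock, ← hmemU, mem_bitsOf]
    simp only [Bool.or_eq_true, decide_eq_true_eq]
    have h24 : m + r ≤ 24 := by omega
    constructor
    · rintro ⟨h1, h2 | h2⟩
      · exact Or.inl ⟨h1, h2⟩
      · exact Or.inr h2
    · rintro (⟨h1, h2⟩ | h2)
      · exact ⟨h1, Or.inl h2⟩
      · exact ⟨by omega, Or.inr h2⟩
  have hblk : blk φ' (mkBlock A r m) = c₀ := by
    ext a
    simp only [blk, Finset.mem_image]
    constructor
    · rintro ⟨i, hi, rfl⟩
      rcases (hmkbits i).mp hi with h1 | ⟨h1, h2⟩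
      · have hf := Finset.mem_filter.mp h1
        rw [hφ1 i (Finset.mem_range.mp hf.1)]
        exact hf.2
      · exact (Finset.mem_sdiff.mp (hφ2 i h1 h2)).1
    · intro ha
      by_cases ha2 : a ∈ (Finset.range m).image φ
      · obtain ⟨i, hi, rfl⟩ := Finset.mem_image.mp ha2
        have hi' := Finset.mem_range.mp hi
        refine ⟨i, (hmkbits i).mpr (Or.inl ?_), hφ1 i hi'⟩
        exact Finset.mem_filter.mpr ⟨hi, ha⟩
      · have haW : a ∈ W := Finset.mem_sdiff.mpr ⟨ha, ha2⟩
        let i := (e ⟨a, haW⟩ : Fin r)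
        have hi := i.2
        refine ⟨m + i.1, (hmkbits _).mpr (Or.inr ⟨by omega, by omega⟩), ?_⟩
        have h1 : ¬ (m + i.1 < m) := by omega
        have h2 : m + i.1 - m < r := by omega
        simp only [φ', h1, h2, if_false, dif_pos]
        have h3 : (⟨m + i.1 - m, h2⟩ : Fin r) = i := Fin.ext (by simp)
        rw [h3]
        simp [i]
  refine ⟨φ', hAlt, ?_, hφ1⟩
  refine ⟨?_, hinj', ?_, ?_⟩
  · omega
  · intro x hx
    rcases List.mem_cons.mp hx with rfl | hx
    · intro j hj
      rcases (hmkbits j).mp hj with h1 | ⟨_, h2⟩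
      · have := Finset.mem_range.mp (Finset.mem_filter.mp h1).1
        exact Finset.mem_range.mpr (by omega)
      · exact Finset.mem_range.mpr h2
    · intro j hj
      have := Finset.mem_range.mp (hG.bits x hx hj)
      exact Finset.mem_range.mpr (by omega)
  · intro x hx
    rcases List.mem_cons.mp hx with rfl | hx
    · rw [hblk]
      exact hc₀
    · rw [hkeep x (hG.bits x hx)]
      exact hG.mem x hx

/-- A new label. -/
theorem new_step' (hα : Fintype.card α = n) (hn : n ≤ 24) {φ : ℕ → α} {m : ℕ} {K : List ℕ} (hG : Good B φ m K)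
    (hm : m < n) : ∃ φ' : ℕ → α, Good B φ' (m + 1) K ∧ ∀ i, i < m → φ' i = φ i := by
  classical
  have himcard : ((Finset.range m).image φ).card = m := by
    rw [Finset.card_image_of_injOn, Finset.card_range]
    intro a ha b hb he
    exact hG.inj (Finset.mem_range.mp (Finset.mem_coe.mp ha)) (Finset.mem_range.mp (Finset.mem_coe.mp hb)) he
  have hlt : ((Finset.range m).image φ).card < (Finset.univ : Finset α).card := by
    rw [himcard, Finset.card_univ, hα]
    exact hm
  obtain ⟨a, -, ha⟩ := Finset.exists_mem_notMem_of_card_lt_card hlt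
  let φ' : ℕ → α := fun i => if i < m then φ i else a
  have hφ1 : ∀ i, i < m → φ' i = φ i := fun i hi => by simp [φ', hi]
  have hφ2 : φ' m = a := by simp [φ']
  have hkeep : ∀ x, bitsOf x ⊆ Finset.range m → blk φ' x = blk φ x := by
    intro x hx
    unfold blk
    apply Finset.image_congr
    intro i hi
    exact hφ1 i (Finset.mem_range.mp (hx hi))
  refine ⟨φ', ⟨by omega, ?_, ?_, ?_⟩, hφ1⟩
  · intro i hi j hj he
    have hi' : i < m + 1 := hi
    have hj' : j < m + 1 := hj
    by_cases h1 : i < m <;> by_cases h2 : j < m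
    · rw [hφ1 i h1, hφ1 j h2] at he
      exact hG.inj h1 h2 he
    · exfalso
      have : j = m := by omega
      subst this
      rw [hφ1 i h1, hφ2] at he
      exact ha (he ▸ Finset.mem_image_of_mem _ (Finset.mem_range.mpr h1))
    · exfalso
      have : i = m := by omega
      subst this
      rw [hφ1 j h2, hφ2] at he
      exact ha (he ▸ Finset.mem_image_of_mem _ (Finset.mem_range.mpr h2))
    · omega
  · intro x hx j hj
    have := Finset.mem_range.mp (hG.bits x hx hj)
    exact Finset.mem_range.mpr (by omega)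
  · intro x hx
    rw [hkeep x (hG.bits x hx)]
    exact hG.mem x hx

end Step

/-! ### Tables -/

theorem table_props {m : ℕ} {τ : List ℕ} (hm24 : m ≤ 24) (h3 : mapMask m τ (fullMask m) = fullMask m) :
    (∀ i, i < m → τ.getD i 0 < m) ∧ Set.InjOn (fun i => τ.getD i 0) (Set.Iio m) := by
  classical
  set τf : ℕ → ℕ := fun i => τ.getD i 0 with hτf
  have hfull : ∀ j, (fullMask m).testBit j = true ↔ j < m := by
    intro j
    have h1 : fullMask m = 2 ^ m - 1 := by
      change (1 <<< m) - 1 = _
      rw [Nat.one_shiftLeft]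
    rw [h1, Nat.testBit_two_pow_sub_one]
    simp
  have hτlt : ∀ i, i < m → τf i < m := by
    intro i hi
    by_contra hcon
    have h5 : (mapMask m τ (fullMask m)).testBit (τf i) = true := by
      unfold mapMask
      rw [testBit_maskL]
      simp only [List.mem_map, List.mem_filter, List.mem_range]
      exact ⟨i, ⟨hi, (hfull i).mpr hi⟩, rfl⟩
    rw [h3] at h5
    exact hcon ((hfull _).mp h5)
  have hsurj : ∀ j, j < m → ∃ i, i < m ∧ τf i = j := by
    intro j hj
    have h5 : j ∈ bitsOf (mapMask m τ (fullMask m)) := by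
      rw [h3, mem_bitsOf]
      exact ⟨by omega, (hfull j).mpr hj⟩
    rw [bits_mapMask (by omega)] at h5
    obtain ⟨i, h6, -, h8⟩ := h5
    exact ⟨i, h6, h8⟩
  refine ⟨hτlt, ?_⟩
  have himg : (Finset.range m).image τf = Finset.range m := by
    ext j
    simp only [Finset.mem_image, Finset.mem_range]
    constructor
    · rintro ⟨i, hi, rfl⟩
      exact hτlt i hi
    · intro hj
      exact hsurj j hj
  have hcard : ((Finset.range m).image τf).card = (Finset.range m).card := by rw [himg]
  have := Finset.card_image_iff.mp hcard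
  intro a ha b hb he
  exact this (Finset.mem_coe.mpr (Finset.mem_range.mpr ha)) (Finset.mem_coe.mpr (Finset.mem_range.mpr hb)) he

section Blk

variable {α : Type*} [DecidableEq α]

theorem blk_table {φ : ℕ → α} {m : ℕ} {τ : List ℕ} {x : ℕ} (hm24 : m ≤ 24) (hlt : ∀ i, i < m → τ.getD i 0 < m)
    (hx : bitsOf x ⊆ Finset.range m) : blk (fun i => φ (τ.getD i 0)) x = blk φ (mapMask m τ x) := by
  ext a
  simp only [blk, Finset.mem_image]
  constructor
  · rintro ⟨i, hi, rfl⟩
    have him := Finset.mem_range.mp (hx hi)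
    refine ⟨τ.getD i 0, ?_, rfl⟩
    have := hlt i him
    rw [bits_mapMask (by omega)]
    exact ⟨i, him, (mem_bitsOf.mp hi).2, rfl⟩
  · rintro ⟨j, hj, rfl⟩
    have hj24 := (mem_bitsOf.mp hj).1
    rw [bits_mapMask hj24] at hj
    obtain ⟨i, h1, h2, rfl⟩ := hj
    exact ⟨i, mem_bitsOf.mpr ⟨by omega, h2⟩, rfl⟩

end Blk

/-! ### The search tree -/

/-- A certificate: `leaf` closes the search with a relabelling of the masks, `newpt` gives the next label to a fresh
point, `pick` is a node with a list of children. -/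
inductive FTree where
  | leaf : List ℕ → FTree
  | newpt : FTree → FTree
  | pick : ℕ → FTree → FTree
  | nil : FTree
  | cons : ℕ → FTree → FTree → FTree

/-- The trace labels of a list of children. -/
def fkeys : FTree → List ℕ
  | .cons A _ rest => A :: fkeys rest
  | _ => []

/-- Node, as opposed to list of children. -/
def isNodeF : FTree → Bool
  | .nil => false
  | .cons _ _ _ => false
  | _ => true

/-- The relabelling at a leaf: it fixes the base labels and carries the masks of the model into the known blocks. -/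
def leafOK (n t0 : ℕ) (Ref ρ K : List ℕ) : Bool :=
  Nat.beq (mapMask n ρ (fullMask n)) (fullMask n) && (List.range t0).all (fun i => Nat.beq (ρ.getD i 0) i) &&
    Ref.all (fun x => memB (mapMask n ρ x) K)

/-- The checker. -/
noncomputable def chkF (n t k I M t0 : ℕ) (Ref : List ℕ) : FTree → ℕ → List ℕ → Bool
  | .leaf ρ, m, K => Nat.beq m n && leafOK n t0 Ref ρ K
  | .newpt tr, m, K => Nat.blt m n && isNodeF tr && forceNat (Nat.add m 1) fun m' => chkF n t k I M t0 Ref tr m' K
  | .pick s ch, m, K => nodeOK n t k I M s (fkeys ch) m K && chkF n t k I M t0 Ref ch m K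
  | .nil, _, _ => true
  | .cons A tr rest, m, K =>
    isNodeF tr &&
      (forceNat (Nat.sub k (pc A)) fun r =>
        forceNat (Nat.add m r) fun m' =>
          forceNat (mkBlock A r m) fun b => chkF n t k I M t0 Ref tr m' (b :: K)) &&
      chkF n t k I M t0 Ref rest m K

section Sound

variable {α : Type*} [DecidableEq α] [Fintype α] {n t k I M t0 : ℕ} {B : Set (Finset α)} {Ref : List ℕ}

/-- The conclusion of the search for a labelling `ψ` of the base labels. -/
def FConcl (B : Set (Finset α)) (n t0 : ℕ) (Ref : List ℕ) (ψ : ℕ → α) : Prop :=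
  ∃ φ : ℕ → α, (∀ i, i < t0 → φ i = ψ i) ∧ Good B φ n Ref

theorem leaf_fconcl {ρ K : List ℕ} {φ ψ : ℕ → α} (hG : Good B φ n K) (hRef : ∀ x ∈ Ref, bitsOf x ⊆ Finset.range n)
    (hag : ∀ i, i < t0 → φ i = ψ i) (ht0 : t0 ≤ n) (h : leafOK n t0 Ref ρ K = true) : FConcl B n t0 Ref ψ := by
  simp only [leafOK, Bool.and_eq_true] at h
  obtain ⟨⟨h1, h2⟩, h3⟩ := h
  have hle := hG.le
  obtain ⟨hlt, hinj⟩ := table_props hle (Nat.eq_of_beq_eq_true h1)
  refine ⟨fun i => φ (ρ.getD i 0), ?_, hle, ?_, hRef, ?_⟩
  · intro i hi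
    have := Nat.eq_of_beq_eq_true (List.all_eq_true.mp h2 i (List.mem_range.mpr hi))
    simp only
    rw [this]
    exact hag i hi
  · intro a ha b hb he
    exact hinj ha hb (hG.inj (hlt a ha) (hlt b hb) he)
  · intro x hx
    rw [blk_table hle hlt (hRef x hx)]
    exact hG.mem _ (memB_iff.mp (List.all_eq_true.mp h3 x hx))

/-- Soundness of the checker. -/
theorem chkF_sound (hα : Fintype.card α = n) (hn : n ≤ 24) (hB : Cfsg.IsSteinerSystem t k B)
    (hI : ∀ b ∈ B, ∀ c ∈ B, b ≠ c → allowedB I (b ∩ c).card = true) (hM : ∀ x, allowedB I x = true → x ≤ M)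
    (hRef : ∀ x ∈ Ref, bitsOf x ⊆ Finset.range n) (ht0 : t0 ≤ n) (ψ : ℕ → α) (tr : FTree) :
    ∀ m K, chkF n t k I M t0 Ref tr m K = true → t0 ≤ m →
      (isNodeF tr = true → ∀ φ, Good B φ m K → (∀ i, i < t0 → φ i = ψ i) → FConcl B n t0 Ref ψ) ∧
      (∀ A ∈ fkeys tr, ∀ φ, Good B φ (m + Nat.sub k (pc A)) (mkBlock A (Nat.sub k (pc A)) m :: K) →
        (∀ i, i < t0 → φ i = ψ i) → FConcl B n t0 Ref ψ) := by
  induction tr with
  | leaf ρ =>
    intro m K h _
    refine ⟨fun _ φ hG hag => ?_, fun A hA => by simp [fkeys] at hA⟩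
    simp only [chkF, Bool.and_eq_true] at h
    have h1 : m = n := Nat.eq_of_beq_eq_true h.1
    subst h1
    exact leaf_fconcl hG hRef hag ht0 h.2
  | newpt tr ih =>
    intro m K h hm
    refine ⟨fun _ φ hG hag => ?_, fun A hA => by simp [fkeys] at hA⟩
    simp only [chkF, Bool.and_eq_true, forceNat_eq] at h
    have h1 : m < n := Nat.blt_eq.mp h.1.1
    obtain ⟨φ', hG', hag'⟩ := new_step' hα hn hG h1
    refine (ih _ _ h.2 (by change t0 ≤ m + 1; omega)).1 h.1.2 φ' hG' ?_
    intro i hi
    rw [hag' i (by omega), hag i hi]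
  | pick s ch ih =>
    intro m K h hm
    refine ⟨fun _ φ hG hag => ?_, fun A hA => by simp [fkeys] at hA⟩
    simp only [chkF, Bool.and_eq_true] at h
    obtain ⟨h1, h3⟩ := h
    have hch := (ih _ _ h3 hm).2
    obtain ⟨A, hA, φ', -, hG', hag'⟩ := node_step' hα hn hB hI hM hG h1
    refine hch A hA φ' hG' ?_
    intro i hi
    rw [hag' i (by omega), hag i hi]
  | nil =>
    intro m K _ _
    exact ⟨fun h => by simp [isNodeF] at h, fun A hA => by simp [fkeys] at hA⟩
  | cons A tr rest ih1 ih2 =>
    intro m K h hm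
    simp only [chkF, Bool.and_eq_true, forceNat_eq] at h
    refine ⟨fun h' => by simp [isNodeF] at h', fun A' hA' φ hG hag => ?_⟩
    rcases List.mem_cons.mp hA' with rfl | hA'
    · have hm' : t0 ≤ Nat.add m (Nat.sub k (pc A')) := by
        change t0 ≤ m + _
        omega
      exact (ih1 _ _ h.1.2 hm').1 h.1.1 φ hG hag
    · exact (ih2 _ _ h.2 hm).2 A' hA' φ hG hag

/-- The full statement of the search. -/
theorem fconcl_of_chk (hα : Fintype.card α = n) (hn : n ≤ 24) (hB : Cfsg.IsSteinerSystem t k B)
    (hI : ∀ b ∈ B, ∀ c ∈ B, b ≠ c → allowedB I (b ∩ c).card = true) (hM : ∀ x, allowedB I x = true → x ≤ M)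
    (hRef : ∀ x ∈ Ref, bitsOf x ⊆ Finset.range n) (ht0 : t0 ≤ n) {tr : FTree} (hnode : isNodeF tr = true)
    (h : chkF n t k I M t0 Ref tr t0 [] = true) (ψ : ℕ → α) (hψ : Set.InjOn ψ (Set.Iio t0)) :
    FConcl B n t0 Ref ψ := by
  refine (chkF_sound hα hn hB hI hM hRef ht0 ψ tr t0 [] h le_rfl).1 hnode ψ ⟨by omega, hψ, ?_, ?_⟩ (fun _ _ => rfl)
  · intro x hx
    simp at hx
  · intro x hx
    simp at hx

/-- A labelling of the whole point set with the right masks exhausts the system. -/
theorem eq_of_good (hα : Fintype.card α = n) (hB : Cfsg.IsSteinerSystem t k B) (hpos : 0 < Nat.choose k t)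
    (hcard : Ref.length * Nat.choose k t = Nat.choose n t) (hnd : Ref.Nodup) (hlt : ∀ x ∈ Ref, x < 2 ^ 24)
    {φ : ℕ → α} (hG : Good B φ n Ref) : B = blk φ '' {x | x ∈ Ref} := by
  classical
  symm
  apply Set.eq_of_subset_of_ncard_le
  · rintro _ ⟨x, hx, rfl⟩
    exact hG.mem x hx
  · have h1 := Cfsg.Agent.S0350.result hB
    rw [hα, ← hcard] at h1
    have h2 : B.ncard = Ref.length := Nat.eq_of_mul_eq_mul_right hpos h1
    rw [h2, Set.ncard_image_of_injOn]
    · have : {x | x ∈ Ref} = (↑Ref.toFinset : Set ℕ) := by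
        ext x
        simp
      rw [this, Set.ncard_coe_finset, List.toFinset_card_of_nodup hnd]
    · intro x hx y hy he
      apply eq_of_bits (hlt x hx) (hlt y hy)
      ext j
      have hxb := hG.bits x hx
      have hyb := hG.bits y hy
      constructor
      · intro hj
        have hjn := Finset.mem_range.mp (hxb hj)
        have : φ j ∈ blk φ y := by
          rw [← he]
          exact Finset.mem_image_of_mem _ hj
        exact (mem_blk_iff hG.inj hyb hjn).mp this
      · intro hj
        have hjn := Finset.mem_range.mp (hyb hj)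
        have : φ j ∈ blk φ x := by
          rw [he]
          exact Finset.mem_image_of_mem _ hj
        exact (mem_blk_iff hG.inj hxb hjn).mp this
  · exact Set.toFinite _

end Sound

/-! ### Rigidity -/

/-- Every relabelling fixing the base labels and preserving the masks is trivial. -/
noncomputable def rigidCheck (n t0 : ℕ) (Ref : List ℕ) : Bool :=
  forceNat (maskL Ref) fun tbl =>
    (List.permutations' (List.range' t0 (n - t0))).all fun p =>
      (!(Ref.all fun x => tb tbl (mapMask n (List.range t0 ++ p) x))) ||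
        listEq (List.range t0 ++ p) (List.range n)

theorem rigid_of_check {n t0 : ℕ} {Ref : List ℕ} (h : rigidCheck n t0 Ref = true) (ht0 : t0 ≤ n) (f : ℕ → ℕ)
    (hlt : ∀ i, i < n → f i < n) (hinj : Set.InjOn f (Set.Iio n)) (hfix : ∀ i, i < t0 → f i = i)
    (hpres : ∀ x ∈ Ref, mapMask n ((List.range n).map f) x ∈ Ref) : ∀ i, i < n → f i = i := by
  classical
  have hsplit : List.range n = List.range t0 ++ List.range' t0 (n - t0) := by
    conv_lhs => rw [← Nat.add_sub_cancel' ht0]
    rw [List.range_add]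
    congr 1
    rw [List.range'_eq_map_range]
  have hmap0 : (List.range t0).map f = List.range t0 := by
    conv_rhs => rw [← List.map_id (List.range t0)]
    apply List.map_congr_left
    intro i hi
    exact hfix i (List.mem_range.mp hi)
  set p := (List.range' t0 (n - t0)).map f with hp
  have hT : (List.range n).map f = List.range t0 ++ p := by
    rw [hsplit, List.map_append, hmap0]
  have hperm : List.Perm p (List.range' t0 (n - t0)) := by
    apply List.perm_of_nodup_nodup_toFinset_eq
    · rw [hp]
      apply List.Nodup.map_on _ List.nodup_range'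
      intro a ha b hb he
      rw [List.mem_range'_1] at ha hb
      exact hinj (by simp; omega) (by simp; omega) he
    · exact List.nodup_range'
    · apply Finset.eq_of_subset_of_card_le
      · intro a ha
        simp only [List.mem_toFinset, hp, List.mem_map, List.mem_range'_1] at ha ⊢
        obtain ⟨i, hi, rfl⟩ := ha
        refine ⟨?_, ?_⟩
        · by_contra hcon
          have h1 : f i < t0 := by omega
          have h2 := hfix _ h1
          have h3 := hinj (x₁ := f i) (x₂ := i) (by simp; exact hlt i (by omega)) (by simp; omega) h2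
          omega
        · have := hlt i (by omega)
          omega
      · have hnd : p.Nodup := by
          rw [hp]
          apply List.Nodup.map_on _ List.nodup_range'
          intro a ha b hb he
          rw [List.mem_range'_1] at ha hb
          exact hinj (by simp; omega) (by simp; omega) he
        rw [List.toFinset_card_of_nodup hnd, List.toFinset_card_of_nodup List.nodup_range', hp, List.length_map]
  have hmem : p ∈ List.permutations' (List.range' t0 (n - t0)) := List.mem_permutations'.mpr hperm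
  rw [rigidCheck, forceNat_eq] at h
  have h1 := List.all_eq_true.mp h p hmem
  rw [Bool.or_eq_true] at h1
  rcases h1 with h1 | h1
  · exfalso
    have h2 : (Ref.all fun x => tb (maskL Ref) (mapMask n (List.range t0 ++ p) x)) = true := by
      rw [List.all_eq_true]
      intro x hx
      rw [tb_eq, testBit_maskL, ← hT]
      exact hpres x hx
    rw [h2] at h1
    simp at h1
  · have h2 := listEq_eq h1
    rw [← hT] at h2
    intro i hi
    have h3 : ((List.range n).map f).getD i 0 = (List.range n).getD i 0 := by rw [h2]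
    have hl : i < (List.range n).length := by simpa using hi
    simp only [List.getD_eq_getElem _ _ (by simpa using hi : i < ((List.range n).map f).length),
      List.getD_eq_getElem _ _ hl, List.getElem_map, List.getElem_range] at h3
    exact h3

section Group

variable {α : Type*} [DecidableEq α] [Fintype α] {n : ℕ} {B : Set (Finset α)} {Ref : List ℕ}

/-- The bijection given by a labelling. -/
noncomputable def labelEquiv (hα : Fintype.card α = n) {φ : ℕ → α} (hφ : Set.InjOn φ (Set.Iio n)) : Fin n ≃ α :=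
  Equiv.ofBijective (fun i : Fin n => φ i) (by
    rw [Fintype.bijective_iff_injective_and_card]
    refine ⟨fun a b he => Fin.ext (hφ a.2 b.2 he), by simp [hα]⟩)

theorem labelEquiv_apply (hα : Fintype.card α = n) {φ : ℕ → α} (hφ : Set.InjOn φ (Set.Iio n)) (i : Fin n) :
    labelEquiv hα hφ i = φ i := rfl

theorem smul_blk (g : Equiv.Perm α) {φ φ' : ℕ → α} {x : ℕ} (hx : bitsOf x ⊆ Finset.range n)
    (h : ∀ i, i < n → g (φ i) = φ' i) : g • blk φ x = blk φ' x := by
  ext a
  rw [Finset.mem_smul_finset]
  simp only [blk, Finset.mem_image, Equiv.Perm.smul_def]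
  constructor
  · rintro ⟨_, ⟨i, hi, rfl⟩, rfl⟩
    exact ⟨i, hi, (h i (Finset.mem_range.mp (hx hi))).symm⟩
  · rintro ⟨i, hi, rfl⟩
    exact ⟨φ i, ⟨i, hi, rfl⟩, h i (Finset.mem_range.mp (hx hi))⟩

/-- Two labellings with the same masks differ by an automorphism. -/
theorem exists_aut (hα : Fintype.card α = n) {φ₁ φ₂ : ℕ → α} (h₁ : Set.InjOn φ₁ (Set.Iio n))
    (h₂ : Set.InjOn φ₂ (Set.Iio n)) (hRef : ∀ x ∈ Ref, bitsOf x ⊆ Finset.range n)
    (hB₁ : B = blk φ₁ '' {x | x ∈ Ref}) (hB₂ : B = blk φ₂ '' {x | x ∈ Ref}) :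
    ∃ g ∈ Cfsg.setSystemAut B, ∀ i, i < n → g (φ₁ i) = φ₂ i := by
  let e₁ := labelEquiv hα h₁
  let e₂ := labelEquiv hα h₂
  have key : ∀ i, i < n → (e₁.symm.trans e₂) (φ₁ i) = φ₂ i := by
    intro i hi
    have : e₁ ⟨i, hi⟩ = φ₁ i := rfl
    rw [Equiv.trans_apply, ← this, Equiv.symm_apply_apply]
    rfl
  refine ⟨e₁.symm.trans e₂, ?_, key⟩
  rw [Cfsg.setSystemAut, MulAction.mem_stabilizer_iff]
  ext c
  rw [Set.mem_smul_set]
  constructor
  · rintro ⟨b, hb, rfl⟩
    rw [hB₁] at hb
    obtain ⟨x, hx, rfl⟩ := hb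
    rw [smul_blk _ (hRef x hx) key, hB₂]
    exact ⟨x, hx, rfl⟩
  · intro hc
    rw [hB₂] at hc
    obtain ⟨x, hx, rfl⟩ := hc
    refine ⟨blk φ₁ x, ?_, smul_blk _ (hRef x hx) key⟩
    rw [hB₁]
    exact ⟨x, hx, rfl⟩

/-- An automorphism fixing the base labels is trivial. -/
theorem eq_one_of_fix (hα : Fintype.card α = n) {t0 : ℕ} (ht0 : t0 ≤ n) (hrig : rigidCheck n t0 Ref = true)
    {φ : ℕ → α} (hφ : Set.InjOn φ (Set.Iio n)) (hRef : ∀ x ∈ Ref, bitsOf x ⊆ Finset.range n)
    (hlt24 : ∀ x ∈ Ref, x < 2 ^ 24) (hn : n ≤ 24)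
    (hB : B = blk φ '' {x | x ∈ Ref}) {g : Equiv.Perm α} (hg : g ∈ Cfsg.setSystemAut B)
    (hfix : ∀ i, i < t0 → g (φ i) = φ i) : g = 1 := by
  classical
  let e := labelEquiv hα hφ
  let f : ℕ → ℕ := fun i => if hi : i < n then (e.symm (g (φ i))).val else i
  have hf1 : ∀ i, i < n → f i < n := by
    intro i hi
    simp only [f, hi, dif_pos]
    exact Fin.is_lt _
  have hf2 : ∀ i, i < n → φ (f i) = g (φ i) := by
    intro i hi
    simp only [f, hi, dif_pos]
    have := labelEquiv_apply hα hφ (e.symm (g (φ i)))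
    rw [← this]
    exact e.apply_symm_apply _
  have hinj : Set.InjOn f (Set.Iio n) := by
    intro a ha b hb he
    have h1 := hf2 a ha
    have h2 := hf2 b hb
    rw [he, h2] at h1
    exact hφ ha hb (g.injective h1).symm
  have hfix' : ∀ i, i < t0 → f i = i := by
    intro i hi
    have hin : i < n := by omega
    apply hφ (hf1 i hin) hin
    rw [hf2 i hin]
    exact hfix i hi
  have hgetD : ∀ i, i < n → ((List.range n).map f).getD i 0 = f i := by
    intro i hi
    rw [List.getD_eq_getElem _ _ (by simpa using hi)]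
    simp
  have hpres : ∀ x ∈ Ref, mapMask n ((List.range n).map f) x ∈ Ref := by
    intro x hx
    have h1 : g • blk φ x ∈ B := by
      have h0 : g • B = B := MulAction.mem_stabilizer_iff.1 hg
      rw [← h0]
      refine Set.smul_mem_smul_set ?_
      rw [hB]
      exact ⟨x, hx, rfl⟩
    have h1' := h1
    rw [hB] at h1'
    obtain ⟨y, hy, hye⟩ := h1'
    have hmm : mapMask n ((List.range n).map f) x = y := by
      have hyb := hRef y hy
      have hxb := hRef x hx
      have hlt : mapMask n ((List.range n).map f) x < 2 ^ 24 := by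
        apply Nat.lt_pow_two_of_testBit
        intro j hj
        rw [Bool.eq_false_iff]
        intro h5
        unfold mapMask at h5
        rw [testBit_maskL] at h5
        simp only [List.mem_map, List.mem_filter, List.mem_range] at h5
        obtain ⟨i, ⟨hi, -⟩, rfl⟩ := h5
        rw [hgetD i hi] at hj
        have := hf1 i hi
        omega
      apply eq_of_bits hlt (hlt24 y hy)
      ext j
      constructor
      · intro hj
        have hj24 := (mem_bitsOf.mp hj).1
        rw [bits_mapMask hj24] at hj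
        obtain ⟨i, hi, hi2, hi3⟩ := hj
        rw [hgetD i hi] at hi3
        subst hi3
        have h2 : φ (f i) ∈ blk φ y := by
          rw [hye, Finset.mem_smul_finset]
          exact ⟨φ i, Finset.mem_image_of_mem _ (mem_bitsOf.mpr ⟨by omega, hi2⟩), (hf2 i hi).symm⟩
        exact (mem_blk_iff hφ hyb (hf1 i hi)).mp h2
      · intro hj
        have hjn := Finset.mem_range.mp (hyb hj)
        have h2 : φ j ∈ g • blk φ x := by
          rw [← hye]
          exact Finset.mem_image_of_mem _ hj
        rw [Finset.mem_smul_finset] at h2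
        obtain ⟨a, ha, ha2⟩ := h2
        obtain ⟨i, hi, rfl⟩ := Finset.mem_image.mp ha
        have hin := Finset.mem_range.mp (hxb hi)
        rw [bits_mapMask (by omega)]
        refine ⟨i, hin, (mem_bitsOf.mp hi).2, ?_⟩
        rw [hgetD i hin]
        apply hφ (hf1 i hin) hjn
        rw [hf2 i hin]
        exact ha2
    rw [hmm]
    exact hy
  have hid := rigid_of_check hrig ht0 f hf1 hinj hfix' hpres
  ext1 a
  let i := e.symm a
  have h1 : a = φ i := by
    rw [← labelEquiv_apply hα hφ i]
    exact (e.apply_symm_apply a).symm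
  rw [h1, ← hf2 i i.2, hid i i.2]
  rfl

/-- The final statement: the group is sharply `t0`-fold transitive. -/
theorem sharp_of_fconcl (hα : Fintype.card α = n) (hn : n ≤ 24) {t0 : ℕ} (ht0 : t0 ≤ n) (hn0 : 0 < n)
    (hRef : ∀ x ∈ Ref, bitsOf x ⊆ Finset.range n) (hlt24 : ∀ x ∈ Ref, x < 2 ^ 24)
    (hrig : rigidCheck n t0 Ref = true)
    (hfix : ∀ ψ : ℕ → α, Set.InjOn ψ (Set.Iio t0) →
      ∃ φ : ℕ → α, (∀ i, i < t0 → φ i = ψ i) ∧ Set.InjOn φ (Set.Iio n) ∧ B = blk φ '' {x | x ∈ Ref}) :
    MulAction.IsMultiplyPretransitive (Cfsg.setSystemAut B) α t0 ∧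
      ∀ x : Fin t0 ↪ α, MulAction.stabilizer (Cfsg.setSystemAut B) x = ⊥ := by
  classical
  have hne : Nonempty α := by
    apply Fintype.card_pos_iff.mp
    omega
  obtain ⟨a₀⟩ := hne
  have hext : ∀ x : Fin t0 ↪ α, ∃ φ : ℕ → α, (∀ i : Fin t0, φ i = x i) ∧ Set.InjOn φ (Set.Iio n) ∧
      B = blk φ '' {x | x ∈ Ref} := by
    intro x
    obtain ⟨φ, h1, h2, h3⟩ := hfix (fun i => if hi : i < t0 then x ⟨i, hi⟩ else a₀) (by
      intro a ha b hb he
      have ha' : a < t0 := ha
      have hb' : b < t0 := hb
      simp only [ha', hb', dif_pos] at he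
      exact congrArg Fin.val (x.injective he))
    refine ⟨φ, fun i => ?_, h2, h3⟩
    rw [h1 i.1 i.2]
    simp
  constructor
  · refine ⟨fun x y => ?_⟩
    obtain ⟨φ₁, h1, h2, h3⟩ := hext x
    obtain ⟨φ₂, h4, h5, h6⟩ := hext y
    obtain ⟨g, hg, hgφ⟩ := exists_aut hα h2 h5 hRef h3 h6
    refine ⟨⟨g, hg⟩, ?_⟩
    apply Function.Embedding.ext
    intro i
    have hi : i.1 < n := by
      have := i.2
      omega
    have := hgφ i.1 hi
    rw [h1 i, h4 i] at this
    exact this
  · intro x
    rw [eq_bot_iff]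
    intro g hg
    rw [Subgroup.mem_bot]
    obtain ⟨φ, h1, h2, h3⟩ := hext x
    have hg' : g • x = x := MulAction.mem_stabilizer_iff.mp hg
    apply Subtype.ext
    refine eq_one_of_fix hα ht0 hrig h2 hRef hlt24 hn h3 g.2 ?_
    intro i hi
    have h4 := h1 ⟨i, hi⟩
    simp only at h4
    rw [h4]
    exact congrArg (fun z : Fin t0 ↪ α => z ⟨i, hi⟩) hg'

/-- The search gives sharp transitivity. -/
theorem sharp_of_chk {t k I M t0 : ℕ} (hα : Fintype.card α = n) (hn : n ≤ 24) (ht0 : t0 ≤ n) (hn0 : 0 < n)
    (hB : Cfsg.IsSteinerSystem t k B)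
    (hI : ∀ b ∈ B, ∀ c ∈ B, b ≠ c → allowedB I (b ∩ c).card = true) (hM : ∀ x, allowedB I x = true → x ≤ M)
    (hpos : 0 < Nat.choose k t) (hcard : Ref.length * Nat.choose k t = Nat.choose n t) (hnd : Ref.Nodup)
    (hlt : ∀ x ∈ Ref, x < 2 ^ n) {tr : FTree} (hnode : isNodeF tr = true)
    (h : chkF n t k I M t0 Ref tr t0 [] = true) (hrig : rigidCheck n t0 Ref = true) :
    MulAction.IsMultiplyPretransitive (Cfsg.setSystemAut B) α t0 ∧
      ∀ x : Fin t0 ↪ α, MulAction.stabilizer (Cfsg.setSystemAut B) x = ⊥ := by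
  have hRef : ∀ x ∈ Ref, bitsOf x ⊆ Finset.range n := by
    intro x hx j hj
    rw [Finset.mem_range]
    by_contra hcon
    have h1 : x < 2 ^ j := lt_of_lt_of_le (hlt x hx) (Nat.pow_le_pow_right (by norm_num) (by omega))
    have h2 := (mem_bitsOf.mp hj).2
    rw [Nat.testBit_lt_two_pow h1] at h2
    exact absurd h2 (by simp)
  have hlt24 : ∀ x ∈ Ref, x < 2 ^ 24 := fun x hx =>
    lt_of_lt_of_le (hlt x hx) (Nat.pow_le_pow_right (by norm_num) hn)
  refine sharp_of_fconcl hα hn ht0 hn0 hRef hlt24 hrig ?_
  intro ψ hψ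
  obtain ⟨φ, h1, h2⟩ := fconcl_of_chk hα hn hB hI hM hRef ht0 hnode h ψ hψ
  exact ⟨φ, h1, h2.inj, eq_of_good hα hB hpos hcard hnd hlt24 h2⟩

end Group

end Cfsg.Agent.Lib.BasicSteiner.SearchFix
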